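import Mathlib
import Cfsg.Agent.Lib.Helper12.KS.Defs

/-!
# S0518 (Helper12.KS project): package [Nrm] `PkgNrm`
-/

set_option autoImplicit false
open Cfsg

namespace Cfsg.Agent.Lib.Helper66.KS

open Cfsg.Agent.Lib.Helper12.KS

universe u

/-- A nontrivial 2-subgroup normalized by a maximal 2-local `P` has normalizer `P`. -/
theorem normalizer_eq_of_max {G : Type u} [Group G] {P : Subgroup G} (hmax : IsMaximalTwoLocal P)
    (R : Subgroup G) (hR : IsPGroup 2 ↥R) (hR1 : R ≠ ⊥)
    (hn : ∀ p ∈ P, ∀ r ∈ R, p * r * p⁻¹ ∈ R) : Subgroup.normalizer (R : Set G) = P := by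
  apply hmax.2 _ ⟨R, hR, hR1, rfl⟩
  intro p hp
  rw [Subgroup.mem_normalizer_iff]
  intro r
  constructor
  · exact hn p hp r
  · intro h
    have h1 := hn p⁻¹ (P.inv_mem hp) _ h
    simpa [mul_assoc] using h1

/-- [Nrm] normalizers and centralizers given by maximality (from [O1]). -/
theorem pkgNrm (hO1 : PkgO1.{u}) : PkgNrm.{u} := by
  intro G _ _ P T Q W c hmax hs
  have b := hO1 hs
  have two : Fact (Nat.Prime 2) := ⟨Nat.prime_two⟩
  have hQ2 : IsPGroup 2 ↥Q := IsPGroup.of_card (n := 3) (by rw [b.card_Q]; norm_num)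
  have hW2 : IsPGroup 2 ↥W := IsPGroup.of_card (n := 2) (by rw [b.card_W]; norm_num)
  have hQ1 : Q ≠ ⊥ := by
    intro h
    have h1 := b.card_Q
    rw [h, Subgroup.card_bot] at h1
    omega
  have hW1 : W ≠ ⊥ := by
    intro h
    have h1 := b.card_W
    rw [h, Subgroup.card_bot] at h1
    omega
  have hord : orderOf c = 2 := orderOf_eq_prime (by rw [pow_two]; exact b.c_sq) b.c_ne
  have hZ2 : IsPGroup 2 ↥(Subgroup.zpowers c) :=
    IsPGroup.of_card (n := 1) (by rw [Nat.card_zpowers, hord]; norm_num)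
  have hZ1 : Subgroup.zpowers c ≠ ⊥ := Subgroup.zpowers_ne_bot.2 b.c_ne
  have hfix : ∀ g : G, g * c = c * g → ∀ r ∈ Subgroup.zpowers c, g * r * g⁻¹ = r := by
    intro g hg r hr
    obtain ⟨k, rfl⟩ := Subgroup.mem_zpowers_iff.1 hr
    have hgc : Commute g c := hg
    rw [(hgc.zpow_right k).eq, mul_inv_cancel_right]
  have hZ : Subgroup.normalizer ((Subgroup.zpowers c : Subgroup G) : Set G) = P := by
    apply normalizer_eq_of_max hmax _ hZ2 hZ1
    intro p hp r hr
    rw [hfix p (b.c_central p hp) r hr]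
    exact hr
  refine ⟨normalizer_eq_of_max hmax Q hQ2 hQ1 b.Q_normal,
    normalizer_eq_of_max hmax W hW2 hW1 b.W_normal, ?_⟩
  apply le_antisymm
  · intro g hg
    have hgc : g * c = c * g := by
      rw [Subgroup.mem_centralizer_iff] at hg
      exact (hg c rfl).symm
    have hgc' : g⁻¹ * c = c * g⁻¹ := by
      have h1 : Commute g c := hgc
      exact h1.inv_left.eq
    rw [← hZ, Subgroup.mem_normalizer_iff]
    intro r
    constructor
    · intro hr
      rw [hfix g hgc r hr]
      exact hr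
    · intro hr
      have h1 := hfix g⁻¹ hgc' _ hr
      have h2 : g⁻¹ * (g * r * g⁻¹) * g⁻¹⁻¹ = r := by group
      rw [h2] at h1
      rw [h1]
      exact hr
  · intro p hp
    rw [Subgroup.mem_centralizer_iff]
    intro x hx
    rw [Set.mem_singleton_iff] at hx
    subst hx
    exact (b.c_central p hp).symm

end Cfsg.Agent.Lib.Helper66.KS
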