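import Mathlib
import Cfsg.Agent.Lib.Helper12.KS.Defs
import Cfsg.Agent.Lib.Helper66.KS.Nrm

/-!
# S0518 (Helper12.KS project): package [ALe] `PkgALe`

In case A (`P₁ ≅ P₂ ≅ S₄` maximal 2-locals with a common Sylow 2-subgroup `T`), `P₁` lies in the
subgroup generated by the elements of odd order.
-/

set_option autoImplicit false
open Cfsg

namespace Cfsg.Agent.Lib.Helper66.KS

open Cfsg.Agent.Lib.Helper12.KS
open Equiv

universe u

set_option maxRecDepth 100000 in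
theorem s4_inV_mul : ∀ a b : Perm (Fin 4), inV a → inV b → inV (a * b) := by decide +kernel

set_option maxRecDepth 100000 in
theorem s4_inV_inv : ∀ a : Perm (Fin 4), inV a → inV a⁻¹ := by decide +kernel

set_option maxRecDepth 100000 in
theorem s4_inV_conj : ∀ a s : Perm (Fin 4), inV a → inV (s * a * s⁻¹) := by decide +kernel

set_option maxRecDepth 100000 in
theorem s4_even_eq_mul_cubes : ∀ s : Perm (Fin 4), Perm.sign s = 1 →
    ∃ a b : Perm (Fin 4), a ^ 3 = 1 ∧ b ^ 3 = 1 ∧ s = a * b := by decide +kernel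

set_option maxRecDepth 100000 in
theorem s4_inV_of_even_sq : ∀ s : Perm (Fin 4), Perm.sign s = 1 → s * s = 1 → inV s := by
  decide +kernel

set_option maxRecDepth 100000 in
theorem s4_inV_of_centralizes : ∀ s : Perm (Fin 4),
    (∀ v : Perm (Fin 4), inV v → s * v = v * s) → inV s := by decide +kernel

set_option maxRecDepth 100000 in
theorem s4_inV_comm : ∀ a b : Perm (Fin 4), inV a → inV b → a * b = b * a := by decide +kernel

set_option maxRecDepth 100000 in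
theorem s4_inV_ne_one : ∃ v : Perm (Fin 4), inV v ∧ v ≠ 1 := by decide +kernel

set_option maxRecDepth 100000 in
theorem s4_inV_sq : ∀ a : Perm (Fin 4), inV a → a * a = 1 := by decide +kernel

set_option maxRecDepth 100000 in
theorem s4_inV_sign : ∀ a : Perm (Fin 4), inV a → Perm.sign a = 1 := by decide +kernel

/-- The four-group of `P ≅ S₄`, as a subgroup of `G`. -/
def vOf {G : Type u} [Group G] (P : Subgroup G) (e : ↥P ≃* Perm (Fin 4)) : Subgroup G where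
  carrier := {x | ∃ hx : x ∈ P, inV (e ⟨x, hx⟩)}
  mul_mem' := by
    rintro a b ⟨ha, ha'⟩ ⟨hb, hb'⟩
    refine ⟨P.mul_mem ha hb, ?_⟩
    have h1 : (⟨a * b, P.mul_mem ha hb⟩ : ↥P) = ⟨a, ha⟩ * ⟨b, hb⟩ := rfl
    rw [h1, map_mul]
    exact s4_inV_mul _ _ ha' hb'
  one_mem' := by
    refine ⟨P.one_mem, ?_⟩
    have h1 : (⟨1, P.one_mem⟩ : ↥P) = 1 := rfl
    rw [h1, map_one]
    exact Or.inl rfl
  inv_mem' := by
    rintro a ⟨ha, ha'⟩
    refine ⟨P.inv_mem ha, ?_⟩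
    have h1 : (⟨a⁻¹, P.inv_mem ha⟩ : ↥P) = ⟨a, ha⟩⁻¹ := rfl
    rw [h1, map_inv]
    exact s4_inV_inv _ ha'

section

variable {G : Type u} [Group G] (P : Subgroup G) (e : ↥P ≃* Perm (Fin 4))

theorem mem_vOf {x : G} : x ∈ vOf P e ↔ ∃ hx : x ∈ P, inV (e ⟨x, hx⟩) := Iff.rfl

theorem vOf_le : vOf P e ≤ P := fun _ hx => hx.1

theorem vOf_normal : ∀ p ∈ P, ∀ q ∈ vOf P e, p * q * p⁻¹ ∈ vOf P e := by
  rintro p hp q ⟨hq, hq'⟩
  refine ⟨P.mul_mem (P.mul_mem hp hq) (P.inv_mem hp), ?_⟩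
  have h1 : (⟨p * q * p⁻¹, P.mul_mem (P.mul_mem hp hq) (P.inv_mem hp)⟩ : ↥P)
      = ⟨p, hp⟩ * ⟨q, hq⟩ * ⟨p, hp⟩⁻¹ := rfl
  rw [h1, map_mul, map_mul, map_inv]
  exact s4_inV_conj _ _ hq'

theorem vOf_sq : ∀ q ∈ vOf P e, q * q = 1 := by
  rintro q ⟨hq, hq'⟩
  have h1 := s4_inV_sq _ hq'
  rw [← map_mul] at h1
  have h2 : (⟨q, hq⟩ : ↥P) * ⟨q, hq⟩ = 1 := e.injective (by rw [h1, map_one])
  exact congrArg Subtype.val h2

theorem vOf_comm : ∀ a ∈ vOf P e, ∀ b ∈ vOf P e, a * b = b * a := by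
  rintro a ⟨ha, ha'⟩ b ⟨hb, hb'⟩
  have h1 := s4_inV_comm _ _ ha' hb'
  rw [← map_mul, ← map_mul] at h1
  exact congrArg Subtype.val (e.injective h1)

theorem vOf_ne_bot : vOf P e ≠ ⊥ := by
  obtain ⟨v, hv, hv1⟩ := s4_inV_ne_one
  intro h
  have h1 : ((e.symm v : ↥P) : G) ∈ vOf P e := ⟨(e.symm v).2, by simpa using hv⟩
  rw [h, Subgroup.mem_bot] at h1
  apply hv1
  have h2 : e.symm v = 1 := Subtype.ext h1
  have h3 := congrArg e h2
  simpa using h3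

theorem vOf_isPGroup : IsPGroup 2 ↥(vOf P e) := by
  intro g
  refine ⟨1, ?_⟩
  apply Subtype.ext
  rw [pow_one, pow_two]
  exact vOf_sq P e g g.2

/-- The preimage of `A₄` lies in the subgroup generated by the elements of odd order. -/
theorem even_mem_oddGen {x : G} (hx : x ∈ P) (hs : Perm.sign (e ⟨x, hx⟩) = 1) :
    x ∈ oddGen G := by
  obtain ⟨a, b, ha, hb, hab⟩ := s4_even_eq_mul_cubes _ hs
  have hcube : ∀ a : Perm (Fin 4), a ^ 3 = 1 → ((e.symm a : ↥P) : G) ∈ oddGen G := by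
    intro a ha
    apply Subgroup.subset_closure
    have h1 : (e.symm a) ^ 3 = 1 := by rw [← map_pow, ha, map_one]
    have h2 : ((e.symm a : ↥P) : G) ^ 3 = 1 := by
      have h3 := congrArg Subtype.val h1
      simpa using h3
    have h4 : orderOf ((e.symm a : ↥P) : G) ∣ 3 := orderOf_dvd_of_pow_eq_one h2
    rcases (Nat.dvd_prime Nat.prime_three).1 h4 with h5 | h5
    · show Odd (orderOf ((e.symm a : ↥P) : G))
      rw [h5]
      exact odd_one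
    · show Odd (orderOf ((e.symm a : ↥P) : G))
      rw [h5]
      decide
  have h1 : (⟨x, hx⟩ : ↥P) = e.symm a * e.symm b := by
    apply e.injective
    rw [hab, map_mul, MulEquiv.apply_symm_apply, MulEquiv.apply_symm_apply]
  have h2 : x = ((e.symm a : ↥P) : G) * ((e.symm b : ↥P) : G) := congrArg Subtype.val h1
  rw [h2]
  exact (oddGen G).mul_mem (hcube a ha) (hcube b hb)

end

/-- [ALe] in case A, `P₁ ≤ oddGen G` (from [SylIn]). -/
theorem pkgALe (hSylIn : PkgSylIn.{u}) : PkgALe.{u} := by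
  intro G _ _ P₁ P₂ T hA
  obtain ⟨hne, hmax₁, hmax₂, hsyl₁, hsyl₂, ⟨e₁⟩, ⟨e₂⟩⟩ := hA
  -- the four-groups lie in `T`
  have hVT : ∀ (P : Subgroup G) (e : ↥P ≃* Perm (Fin 4)), IsSylowTwoIn T P → vOf P e ≤ T := by
    intro P e hsyl x hx
    obtain ⟨p, hp, hpT⟩ := hSylIn P T hsyl (vOf P e) (vOf_le P e) (vOf_isPGroup P e)
    have h1 : p⁻¹ * x * p⁻¹⁻¹ ∈ vOf P e := vOf_normal P e p⁻¹ (P.inv_mem hp) x hx
    have h2 := hpT _ h1
    have h3 : p * (p⁻¹ * x * p⁻¹⁻¹) * p⁻¹ = x := by group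
    rw [h3] at h2
    exact h2
  have hN₁ : Subgroup.normalizer ((vOf P₁ e₁ : Subgroup G) : Set G) = P₁ :=
    normalizer_eq_of_max hmax₁ _ (vOf_isPGroup P₁ e₁) (vOf_ne_bot P₁ e₁) (vOf_normal P₁ e₁)
  have hN₂ : Subgroup.normalizer ((vOf P₂ e₂ : Subgroup G) : Set G) = P₂ :=
    normalizer_eq_of_max hmax₂ _ (vOf_isPGroup P₂ e₂) (vOf_ne_bot P₂ e₂) (vOf_normal P₂ e₂)
  by_contra hcon
  obtain ⟨p, hp, hpH⟩ := SetLike.not_le_iff_exists.1 hcon
  -- elements of `P₁ ⊓ oddGen G` are even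
  have hA : ∀ x (hx : x ∈ P₁), x ∈ oddGen G → Perm.sign (e₁ ⟨x, hx⟩) = 1 := by
    intro x hx hxH
    rcases Int.units_eq_one_or (Perm.sign (e₁ ⟨x, hx⟩)) with h1 | h1
    · exact h1
    · exfalso
      apply hpH
      rcases Int.units_eq_one_or (Perm.sign (e₁ ⟨p, hp⟩)) with h2 | h2
      · exact even_mem_oddGen P₁ e₁ hp h2
      · have h3 : Perm.sign (e₁ ⟨p * x⁻¹, P₁.mul_mem hp (P₁.inv_mem hx)⟩) = 1 := by
          have h4 : (⟨p * x⁻¹, P₁.mul_mem hp (P₁.inv_mem hx)⟩ : ↥P₁) = ⟨p, hp⟩ * ⟨x, hx⟩⁻¹ := rfl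
          rw [h4, map_mul, map_inv, map_mul, map_inv, h1, h2]
          decide
        have h5 := even_mem_oddGen P₁ e₁ _ h3
        have h6 : p = p * x⁻¹ * x := by group
        rw [h6]
        exact (oddGen G).mul_mem h5 hxH
  have hle₂₁ : vOf P₂ e₂ ≤ vOf P₁ e₁ := by
    intro x hx
    have hxT : x ∈ T := hVT P₂ e₂ hsyl₂ hx
    have hxP₁ : x ∈ P₁ := hsyl₁.1 hxT
    have hxH : x ∈ oddGen G := even_mem_oddGen P₂ e₂ hx.1 (s4_inV_sign _ hx.2)
    refine ⟨hxP₁, s4_inV_of_even_sq _ (hA x hxP₁ hxH) ?_⟩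
    have h1 := vOf_sq P₂ e₂ x hx
    have h2 : (⟨x, hxP₁⟩ : ↥P₁) * ⟨x, hxP₁⟩ = 1 := Subtype.ext h1
    rw [← map_mul, h2, map_one]
  have hle₁₂ : vOf P₁ e₁ ≤ vOf P₂ e₂ := by
    intro x hx
    have hxT : x ∈ T := hVT P₁ e₁ hsyl₁ hx
    have hxP₂ : x ∈ P₂ := hsyl₂.1 hxT
    refine ⟨hxP₂, s4_inV_of_centralizes _ ?_⟩
    intro v hv
    have hy : ((e₂.symm v : ↥P₂) : G) ∈ vOf P₂ e₂ := ⟨(e₂.symm v).2, by simpa using hv⟩
    have h1 := vOf_comm P₁ e₁ x hx _ (hle₂₁ hy)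
    have h2 : (⟨x, hxP₂⟩ : ↥P₂) * e₂.symm v = e₂.symm v * ⟨x, hxP₂⟩ := Subtype.ext h1
    have h3 := congrArg e₂ h2
    rw [map_mul, map_mul, MulEquiv.apply_symm_apply] at h3
    exact h3
  apply hne
  rw [← hN₁, ← hN₂, le_antisymm hle₁₂ hle₂₁]

end Cfsg.Agent.Lib.Helper66.KS
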