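import Mathlib
import Cfsg.Agent.Lib.Helper12.KS.Defs

/-!
# S0518 (Helper12.KS project): package [T] `PkgT`
-/

set_option autoImplicit false
open Cfsg

namespace Cfsg.Agent.Lib.Helper66.KS

open Cfsg.Agent.Lib.Helper12.KS

universe u

/-- [T] `P₁ ⊓ P₂ = T`, `Q₁ ≠ Q₂`, `W₁ ≠ W₂`, `c₁ ≠ c₂` (from [Nrm] and [O1]). -/
theorem pkgT (hNrm : PkgNrm.{u}) (hO1 : PkgO1.{u}) : PkgT.{u} := by
  intro G _ _ P₁ P₂ T Q₁ Q₂ W₁ W₂ c₁ c₂ h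
  obtain ⟨hNQ₁, hNW₁, hC₁⟩ := hNrm h.max₁ h.side₁
  obtain ⟨hNQ₂, hNW₂, hC₂⟩ := hNrm h.max₂ h.side₂
  have b₁ := hO1 h.side₁
  have b₂ := hO1 h.side₂
  refine ⟨?_, ?_, ?_, ?_⟩
  · have hle : T ≤ P₁ ⊓ P₂ := le_inf b₁.T_le_P b₂.T_le_P
    have hd1 : Nat.card ↥T ∣ Nat.card ↥(P₁ ⊓ P₂) := Subgroup.card_dvd_of_le hle
    have hd2 : Nat.card ↥(P₁ ⊓ P₂) ∣ Nat.card ↥P₁ := Subgroup.card_dvd_of_le inf_le_left
    rw [b₁.card_T] at hd1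
    rw [b₁.card_P] at hd2
    obtain ⟨k, hk⟩ := hd1
    have hk3 : k ∣ 3 := by
      rw [hk] at hd2
      exact Nat.dvd_of_mul_dvd_mul_left (by norm_num : 0 < 16) (by simpa using hd2)
    rcases (Nat.dvd_prime Nat.prime_three).1 hk3 with rfl | rfl
    · exact (Subgroup.eq_of_le_of_card_ge hle (by rw [hk, b₁.card_T])).symm
    · exfalso
      have h1 : P₁ ⊓ P₂ = P₁ :=
        Subgroup.eq_of_le_of_card_ge inf_le_left (by rw [hk, b₁.card_P])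
      have h2 : P₁ ⊓ P₂ = P₂ :=
        Subgroup.eq_of_le_of_card_ge inf_le_right (by rw [hk, b₂.card_P])
      exact h.ne (h1.symm.trans h2)
  · intro hq
    apply h.ne
    rw [← hNQ₁, ← hNQ₂, hq]
  · intro hq
    apply h.ne
    rw [← hNW₁, ← hNW₂, hq]
  · intro hq
    apply h.ne
    rw [← hC₁, ← hC₂, hq]

end Cfsg.Agent.Lib.Helper66.KS
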