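import Mathlib
import Cfsg.Agent.Lib.Helper12.KS.Defs
import Cfsg.Agent.Lib.Helper66.KS.T

/-!
# S0518 (Helper12.KS project): package [Inv] `PkgInv`
-/

set_option autoImplicit false
open Cfsg

namespace Cfsg.Agent.Lib.Helper66.KS

open Cfsg.Agent.Lib.Helper12.KS

universe u

/-- [Inv] involutions and elementary abelian subgroups of order 8 of `T`
(from [Nrm], [O1], [O6]). -/
theorem pkgInv (hNrm : PkgNrm.{u}) (hO1 : PkgO1.{u}) (hO6 : PkgO6.{u}) : PkgInv.{u} := by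
  intro G _ _ P₁ P₂ T Q₁ Q₂ W₁ W₂ c₁ c₂ h
  obtain ⟨-, hQne, -, -⟩ := pkgT hNrm hO1 h
  have b₁ := hO1 h.side₁
  have b₂ := hO1 h.side₂
  obtain ⟨E, hET, hEcard, hEsq, hEne, hinv, hE8⟩ := hO6 h.side₁
  have hE : E = Q₂ := by
    rcases hE8 Q₂ b₂.Q_le_T b₂.card_Q b₂.Q_sq with h1 | h1
    · exact absurd h1.symm hQne
    · exact h1.symm
  subst hE
  refine ⟨hinv, hE8, ?_⟩
  have hle : Q₁ ⊔ E ≤ T := sup_le b₁.Q_le_T b₂.Q_le_T
  have hd1 : Nat.card ↥Q₁ ∣ Nat.card ↥(Q₁ ⊔ E) := Subgroup.card_dvd_of_le le_sup_left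
  have hd2 : Nat.card ↥(Q₁ ⊔ E) ∣ Nat.card ↥T := Subgroup.card_dvd_of_le hle
  rw [b₁.card_Q] at hd1
  rw [b₁.card_T] at hd2
  obtain ⟨k, hk⟩ := hd1
  have hk2 : k ∣ 2 := by
    rw [hk] at hd2
    exact Nat.dvd_of_mul_dvd_mul_left (by norm_num : 0 < 8) (by simpa using hd2)
  rcases (Nat.dvd_prime Nat.prime_two).1 hk2 with rfl | rfl
  · exfalso
    have h1 : Q₁ = Q₁ ⊔ E :=
      Subgroup.eq_of_le_of_card_ge le_sup_left (by rw [hk, b₁.card_Q])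
    have h2 : E ≤ Q₁ := by
      rw [h1]
      exact le_sup_right
    exact hQne (Subgroup.eq_of_le_of_card_ge h2 (by rw [b₁.card_Q, b₂.card_Q])).symm
  · exact Subgroup.eq_of_le_of_card_ge hle (by rw [hk, b₁.card_T])

end Cfsg.Agent.Lib.Helper66.KS
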