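import Mathlib
import Cfsg.Agent.Lib.Helper12.KS.Defs
import Cfsg.Agent.Lib.Helper66.KS.T

/-!
# S0518 (Helper12.KS project): package [MaxB3] `PkgMaxB3`
-/

set_option autoImplicit false
open Cfsg

namespace Cfsg.Agent.Lib.Helper66.KS

open Cfsg.Agent.Lib.Helper12.KS

universe u

/-- Normalizers grow in a finite 2-group. -/
theorem ks_exists_normalizer_gt {G : Type u} [Group G] [Finite G] {R T : Subgroup G}
    (hT : IsPGroup 2 ↥T) (hRT : R < T) :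
    ∃ t ∈ T, t ∈ Subgroup.normalizer (R : Set G) ∧ t ∉ R := by
  have two : Fact (Nat.Prime 2) := ⟨Nat.prime_two⟩
  have : Group.IsNilpotent T := hT.isNilpotent
  have hnc : NormalizerCondition T := Group.normalizerCondition_of_isNilpotent
  have h1 : R.subgroupOf T < ⊤ := by
    rw [lt_top_iff_ne_top, Ne, Subgroup.subgroupOf_eq_top]
    exact not_le_of_gt hRT
  have h2 := hnc _ h1
  obtain ⟨x, hx1, hx2⟩ := SetLike.exists_of_lt h2
  refine ⟨x, x.2, ?_, ?_⟩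
  · rw [← Subgroup.subgroupOf_normalizer_eq hRT.le] at hx1
    simpa [Subgroup.mem_subgroupOf] using hx1
  · simpa [Subgroup.mem_subgroupOf] using hx2

/-- Product decomposition in `N ⊔ A` when `A` normalizes `N`. -/
theorem ks_exists_mul_of_mem_sup {G : Type u} [Group G] {N A : Subgroup G}
    (hAN : A ≤ Subgroup.normalizer (N : Set G)) {x : G} (hx : x ∈ N ⊔ A) :
    ∃ n ∈ N, ∃ a ∈ A, x = n * a := by
  rw [Subgroup.sup_eq_closure_mul] at hx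
  induction hx using Subgroup.closure_induction with
  | mem x hx =>
    obtain ⟨n, hn, a, ha, rfl⟩ := Set.mem_mul.mp hx
    exact ⟨n, hn, a, ha, rfl⟩
  | one => exact ⟨1, N.one_mem, 1, A.one_mem, by simp⟩
  | mul x y _ _ ihx ihy =>
    obtain ⟨n₁, hn₁, a₁, ha₁, rfl⟩ := ihx
    obtain ⟨n₂, hn₂, a₂, ha₂, rfl⟩ := ihy
    exact ⟨n₁ * (a₁ * n₂ * a₁⁻¹),
      N.mul_mem hn₁ ((Subgroup.mem_normalizer_iff.mp (hAN ha₁) n₂).mp hn₂), a₁ * a₂,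
      A.mul_mem ha₁ ha₂, by group⟩
  | inv x _ ih =>
    obtain ⟨n, hn, a, ha, rfl⟩ := ih
    exact ⟨a⁻¹ * n⁻¹ * a⁻¹⁻¹,
      (Subgroup.mem_normalizer_iff.mp (hAN (A.inv_mem ha)) n⁻¹).mp (N.inv_mem hn), a⁻¹,
      A.inv_mem ha, by group⟩

/-- If conjugation by `g` maps `H` onto `H`, then `g` normalizes `H`. -/
theorem ks_mem_normalizer_of_map_eq {G : Type u} [Group G] {H : Subgroup G} {g : G}
    (h : H.map (MulAut.conj g).toMonoidHom = H) : g ∈ Subgroup.normalizer (H : Set G) := by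
  rw [Subgroup.mem_normalizer_iff]
  intro x
  constructor
  · intro hx
    rw [← h]
    exact Subgroup.mem_map.2 ⟨x, hx, rfl⟩
  · intro hx
    rw [← h] at hx
    obtain ⟨v, hv, hvx⟩ := Subgroup.mem_map.1 hx
    have h1 : g * v * g⁻¹ = g * x * g⁻¹ := hvx
    have h2 : v = x := mul_left_cancel (mul_right_cancel h1)
    rw [← h2]
    exact hv

/-- [MaxB3] a 2-subgroup of `H = oddGen G` normalized by `P₁ ⊓ H` lies in `P₁ ⊓ H`
(from [Nrm], [O1], [T0], [Nor2]). -/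
theorem pkgMaxB3 (hNrm : PkgNrm.{u}) (hO1 : PkgO1.{u}) (hT0 : PkgT0.{u}) (hNor2 : PkgNor2.{u}) :
    PkgMaxB3.{u} := by
  intro G _ _ P₁ P₂ T Q₁ Q₂ W₁ W₂ c₁ c₂ h hc hTH hcard R hRH hR hKR
  obtain ⟨hPT, -, hWne, -⟩ := pkgT hNrm hO1 h
  obtain ⟨-, hNW₁, -⟩ := hNrm h.max₁ h.side₁
  obtain ⟨-, hNW₂, -⟩ := hNrm h.max₂ h.side₂
  have b₁ := hO1 h.side₁
  have b₂ := hO1 h.side₂
  have f := hT0 h
  have two : Fact (Nat.Prime 2) := ⟨Nat.prime_two⟩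
  have hT₀K : W₁ ⊔ W₂ ≤ P₁ ⊓ oddGen G := by
    rw [← hTH]
    exact inf_le_inf_right _ b₁.T_le_P
  have hW₁T₀ : W₁ ≤ W₁ ⊔ W₂ := le_sup_left
  have hW₂T₀ : W₂ ≤ W₁ ⊔ W₂ := le_sup_right
  by_contra hRK
  have hT₀2 : IsPGroup 2 ↥(W₁ ⊔ W₂) := IsPGroup.of_card (n := 3) (by rw [f.card]; norm_num)
  have hT₀NR : W₁ ⊔ W₂ ≤ Subgroup.normalizer (R : Set G) := hT₀K.trans hKR
  have hS2 : IsPGroup 2 ↥(R ⊔ (W₁ ⊔ W₂)) := IsPGroup.to_sup_of_normal_left' hR hT₀2 hT₀NR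
  have hlt : W₁ ⊔ W₂ < R ⊔ (W₁ ⊔ W₂) := by
    refine lt_of_le_of_ne le_sup_right ?_
    intro heq
    apply hRK
    have h1 : R ≤ W₁ ⊔ W₂ := by
      rw [heq]
      exact le_sup_left
    exact h1.trans hT₀K
  obtain ⟨y, hy, hyN, hyT₀⟩ := ks_exists_normalizer_gt hS2 hlt
  obtain ⟨r, hr, t, ht, rfl⟩ := ks_exists_mul_of_mem_sup hT₀NR hy
  have hrN : r ∈ Subgroup.normalizer ((W₁ ⊔ W₂ : Subgroup G) : Set G) := by
    have ht' : t⁻¹ ∈ Subgroup.normalizer ((W₁ ⊔ W₂ : Subgroup G) : Set G) :=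
      Subgroup.le_normalizer ((W₁ ⊔ W₂).inv_mem ht)
    have h1 := (Subgroup.normalizer ((W₁ ⊔ W₂ : Subgroup G) : Set G)).mul_mem hyN ht'
    simpa using h1
  have hrT₀ : r ∉ W₁ ⊔ W₂ := fun hr' => hyT₀ ((W₁ ⊔ W₂).mul_mem hr' ht)
  have hrH : r ∈ oddGen G := hRH hr
  have hrconj : ∀ x ∈ W₁ ⊔ W₂, r * x * r⁻¹ ∈ W₁ ⊔ W₂ := fun x hx =>
    (Subgroup.mem_normalizer_iff.1 hrN x).1 hx
  have hinj : Function.Injective (MulAut.conj r).toMonoidHom := (MulAut.conj r).injective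
  -- the conjugate of a four-subgroup of `T₀` is `W₁` or `W₂`
  have hfour : ∀ W : Subgroup G, W ≤ W₁ ⊔ W₂ → Nat.card ↥W = 4 → (∀ a ∈ W, a * a = 1) →
      W.map (MulAut.conj r).toMonoidHom = W₁ ∨ W.map (MulAut.conj r).toMonoidHom = W₂ := by
    intro W hW hcW hsq
    apply f.four
    · intro x hx
      obtain ⟨v, hv, rfl⟩ := Subgroup.mem_map.1 hx
      exact hrconj v (hW hv)
    · rw [Subgroup.card_map_of_injective hinj, hcW]
    · intro x hx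
      obtain ⟨v, hv, rfl⟩ := Subgroup.mem_map.1 hx
      rw [← map_mul, hsq v hv, map_one]
  have hW₁sq : ∀ a ∈ W₁, a * a = 1 := fun a ha => b₁.Q_sq a (b₁.W_le_Q ha)
  have hW₂sq : ∀ a ∈ W₂, a * a = 1 := fun a ha => b₂.Q_sq a (b₂.W_le_Q ha)
  have hmap₁ : W₁.map (MulAut.conj r).toMonoidHom = W₂ := by
    rcases hfour W₁ hW₁T₀ b₁.card_W hW₁sq with h1 | h1
    · exfalso
      have hr₁ : r ∈ P₁ := by
        rw [← hNW₁]
        exact ks_mem_normalizer_of_map_eq h1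
      have hr₂ : r ∈ P₂ := by
        rw [← hNW₂]
        apply ks_mem_normalizer_of_map_eq
        rcases hfour W₂ hW₂T₀ b₂.card_W hW₂sq with h2 | h2
        · exact absurd (Subgroup.map_injective hinj (h1.trans h2.symm)) hWne
        · exact h2
      apply hrT₀
      rw [← hTH, ← hPT]
      exact ⟨⟨hr₁, hr₂⟩, hrH⟩
    · exact h1
  -- in both cases of [Nor2], conjugation by `r` maps `W₁` into `W₁`
  have hN2 : IsPGroup 2 ↥(R ⊓ (P₁ ⊓ oddGen G)) := hR.to_le inf_le_left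
  have hNn : ∀ k ∈ P₁ ⊓ oddGen G, ∀ n ∈ R ⊓ (P₁ ⊓ oddGen G), k * n * k⁻¹ ∈ R ⊓ (P₁ ⊓ oddGen G) := by
    intro k hk n hn
    exact ⟨(Subgroup.mem_normalizer_iff.1 (hKR hk) n).1 hn.1,
      (P₁ ⊓ oddGen G).mul_mem ((P₁ ⊓ oddGen G).mul_mem hk hn.2) ((P₁ ⊓ oddGen G).inv_mem hk)⟩
  have hcK : c₁ ∉ P₁ ⊓ oddGen G := fun hx => hc hx.2
  have hstab : ∀ v ∈ W₁, r * v * r⁻¹ ∈ W₁ := by
    intro v hv
    have hvT₀ : v ∈ W₁ ⊔ W₂ := hW₁T₀ hv
    rcases hNor2 h.side₁ (P₁ ⊓ oddGen G) inf_le_left hcK hcard (hW₁T₀.trans hT₀K)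
      (R ⊓ (P₁ ⊓ oddGen G)) inf_le_right hN2 hNn with h1 | h1
    · -- `R ⊓ K = ⊥`: `r` centralizes `W₁`
      have h2 : r * v * r⁻¹ * v⁻¹ ∈ R ⊓ (P₁ ⊓ oddGen G) := by
        refine ⟨?_, hT₀K ((W₁ ⊔ W₂).mul_mem (hrconj v hvT₀) ((W₁ ⊔ W₂).inv_mem hvT₀))⟩
        have h3 : v * r⁻¹ * v⁻¹ ∈ R :=
          (Subgroup.mem_normalizer_iff.1 (hT₀NR hvT₀) r⁻¹).1 (R.inv_mem hr)
        have h4 : r * v * r⁻¹ * v⁻¹ = r * (v * r⁻¹ * v⁻¹) := by group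
        rw [h4]
        exact R.mul_mem hr h3
      rw [h1, Subgroup.mem_bot] at h2
      have h5 : r * v * r⁻¹ = v := by
        have h6 := mul_eq_one_iff_eq_inv.1 h2
        rw [inv_inv] at h6
        exact h6
      rw [h5]
      exact hv
    · -- `R ⊓ K = W₁`
      rw [← h1]
      have hvR : v ∈ R := by
        have h2 : v ∈ R ⊓ (P₁ ⊓ oddGen G) := by
          rw [h1]
          exact hv
        exact h2.1
      exact ⟨R.mul_mem (R.mul_mem hr hvR) (R.inv_mem hr), hT₀K (hrconj v hvT₀)⟩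
  apply hWne
  have hle : W₂ ≤ W₁ := by
    rw [← hmap₁]
    intro x hx
    obtain ⟨v, hv, rfl⟩ := Subgroup.mem_map.1 hx
    exact hstab v hv
  exact (Subgroup.eq_of_le_of_card_ge hle (by rw [b₁.card_W, b₂.card_W])).symm

end Cfsg.Agent.Lib.Helper66.KS
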