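import Mathlib
import Cfsg.Agent.Lib.Helper12.KS.Defs
import Cfsg.Agent.Lib.Helper66.KS.T

/-!
# S0518 (Helper12.KS project): package [W] `PkgW`
-/

set_option autoImplicit false
open Cfsg

namespace Cfsg.Agent.Lib.Helper66.KS

open Cfsg.Agent.Lib.Helper12.KS

universe u

/-- [W] the element `w` (from [Nrm], [O1], [O5], [O7]). -/
theorem pkgW (hNrm : PkgNrm.{u}) (hO1 : PkgO1.{u}) (hO5 : PkgO5.{u}) (hO7 : PkgO7.{u}) :
    PkgW.{u} := by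
  intro G _ _ P₁ P₂ T Q₁ Q₂ W₁ W₂ c₁ c₂ h
  obtain ⟨-, hQne, -, hcne⟩ := pkgT hNrm hO1 h
  have b₁ := hO1 h.side₁
  have b₂ := hO1 h.side₂
  obtain ⟨w, hwW₁, hw1, hwc, hsq, ⟨t₀, ht₀, ht₀w⟩, hcen⟩ := hO5 h.side₁
  obtain ⟨w', hwW₂, hw'1, hwc', hsq', ⟨t₀', ht₀', ht₀w'⟩, hcen'⟩ := hO5 h.side₂
  have hww : w = w' := by
    rcases hsq' t₀ ht₀ with h1 | h1
    · exact absurd (ht₀w.symm.trans h1) hw1
    · exact ht₀w.symm.trans h1
  subst hww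
  have hc₂T : c₂ ∈ T := b₂.Q_le_T b₂.c_mem_Q
  have hc₂cen : ∀ t ∈ T, t * c₂ = c₂ * t := fun t ht => b₂.c_central t (b₂.T_le_P ht)
  have hc₂ : c₂ = c₁ * w := by
    rcases hcen c₂ hc₂T hc₂cen with h1 | h1 | h1 | h1
    · exact absurd h1 b₂.c_ne
    · exact absurd (h1 ▸ hwW₂) b₂.c_not_W
    · exact absurd h1.symm hcne
    · exact h1
  have hQ₁comm : ∀ a ∈ Q₁, ∀ b ∈ Q₁, a * b = b * a := by
    intro a ha b hb
    have h1 := b₁.Q_sq a ha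
    have h2 := b₁.Q_sq b hb
    have h3 := b₁.Q_sq (a * b) (Q₁.mul_mem ha hb)
    have ha' : a⁻¹ = a := inv_eq_of_mul_eq_one_left h1
    have hb' : b⁻¹ = b := inv_eq_of_mul_eq_one_left h2
    have hab : (a * b)⁻¹ = a * b := inv_eq_of_mul_eq_one_left h3
    rw [mul_inv_rev, ha', hb'] at hab
    exact hab.symm
  have hinterQ : ∀ x, x ∈ Q₁ → x ∈ Q₂ → x = 1 ∨ x = w ∨ x = c₁ ∨ x = c₂ := by
    intro x hx₁ hx₂
    by_cases hx : ∀ t ∈ T, t * x = x * t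
    · rcases hcen x (b₁.Q_le_T hx₁) hx with h1 | h1 | h1 | h1
      · exact Or.inl h1
      · exact Or.inr (Or.inl h1)
      · exact Or.inr (Or.inr (Or.inl h1))
      · exact Or.inr (Or.inr (Or.inr (h1.trans hc₂.symm)))
    · exfalso
      push Not at hx
      obtain ⟨t, ht, htx⟩ := hx
      have h7 := hO7 h.side₂ x hx₂ ⟨t, ht, htx⟩
      apply hQne
      have hle : Q₁ ≤ Q₂ := fun q hq => h7 q (b₁.Q_le_T hq) (hQ₁comm q hq x hx₁)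
      exact Subgroup.eq_of_le_of_card_ge hle (by rw [b₁.card_Q, b₂.card_Q])
  refine ⟨w, hw1, b₁.Q_sq w (b₁.W_le_Q hwW₁), hwW₁, hwW₂, hc₂, hwc, hsq, ⟨t₀, ht₀, ht₀w⟩, ?_,
    hinterQ, ?_⟩
  · intro x hx₁ hx₂
    rcases hinterQ x (b₁.W_le_Q hx₁) (b₂.W_le_Q hx₂) with h1 | h1 | h1 | h1
    · exact Or.inl h1
    · exact Or.inr h1
    · exact absurd (h1 ▸ hx₁) b₁.c_not_W
    · exact absurd (h1 ▸ hx₂) b₂.c_not_W
  · intro z hz hzc
    rcases hcen z hz hzc with h1 | h1 | h1 | h1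
    · exact Or.inl h1
    · exact Or.inr (Or.inl h1)
    · exact Or.inr (Or.inr (Or.inl h1))
    · exact Or.inr (Or.inr (Or.inr (h1.trans hc₂.symm)))

end Cfsg.Agent.Lib.Helper66.KS
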